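import Cfsg.Agent.Lib.Calc.HV0

/-!
# Elements of order five in the centraliser
-/

set_option autoImplicit false
set_option maxRecDepth 1000000
set_option maxHeartbeats 0
set_option Elab.async false

namespace Cfsg.Lib.Big.HU

open Cfsg.Lib.Calc Cfsg.Lib.Calc.HN Cfsg.Lib.Big.HN Cfsg.Lib.T2 Subgroup

variable {G : Type*} [Group G] {z : G} {γ : ℕ → G}

theorem v_five_ev : hv.eval (.all 1 100 [] (.imp (.one (.pow (.l 100) 5)) (.or (.one (.l 100)) (.ex 3 101 [(.pow (.l 7) 4, .l 100)] (.tt))))) = true := by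
  decide +kernel

theorem v_five (h : Bar z γ hp.gam) :
    ∀ a ∈ genW γ (hv.ws 1), M1 z (a ^ 5) → M1 z a ∨ (∃ k ∈ genW γ (hv.ws 3), Md z (k * γ 7 ^ 4) (a * k) ∧ True) :=
  hv_ok.transferM h v_five_ev


end Cfsg.Lib.Big.HU
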