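import Cfsg.Agent.Lib.Calc.HUGen
import Cfsg.Agent.Lib.Transfer.Extremal

/-!
# Transfer arguments for a standard component `2.HS`
-/

set_option autoImplicit false

namespace Cfsg.Lib.T2

open Cfsg.Lib.Calc Cfsg.Lib.ES Subgroup

variable {G : Type*} [Group G]

/-- `K` is the union of `M` and the coset of `r` -/
structure Ext2 (K M : Subgroup G) (r : G) : Prop where
  mem : ∀ x, x ∈ K ↔ x ∈ M ∨ x * r ∈ M
  cj : ∀ k ∈ K, ∀ x ∈ M, k * x * k⁻¹ ∈ M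
  mul : ∀ x ∈ K, ∀ y ∈ K, x ∉ M → y ∉ M → x * y ∈ M

theorem exists_ext2 {M : Subgroup G} {r : G} (hn : ∀ x ∈ M, r * x * r⁻¹ ∈ M) (h2 : r * r ∈ M) : ∃ K, Ext2 K M r := by
  have h1 : ∀ x ∈ M, r⁻¹ * x * r ∈ M := fun x m => by
    simpa [mul_assoc] using mul_mem (mul_mem (inv_mem h2) (hn x m)) h2
  have h3 : ∀ {x y}, x * r ∈ M → y * r ∈ M → x * y ∈ M := fun a b => by
    simpa [mul_assoc] using mul_mem (mul_mem a (h1 _ b)) (inv_mem h2)
  refine ⟨⟨⟨⟨{x | x ∈ M ∨ x * r ∈ M}, ?_⟩, Or.inl (one_mem M)⟩, ?_⟩, fun _ => Iff.rfl, ?_, fun x a y b c d =>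
    h3 (a.resolve_left c) (b.resolve_left d)⟩
  · rintro x y (a | a) (b | b)
    exacts [.inl (mul_mem a b), .inr (by rw [mul_assoc]; exact mul_mem a b),
      .inr (by simpa [mul_assoc] using mul_mem a (h1 _ b)), .inl (h3 a b)]
  · rintro x (a | a)
    exacts [.inl (inv_mem a), .inr (by simpa [mul_assoc] using mul_mem (hn _ (inv_mem a)) h2)]
  · rintro k (a | a) x m
    exacts [mul_mem (mul_mem a m) (inv_mem a), by simpa [mul_assoc] using mul_mem (mul_mem a (h1 _ m)) (inv_mem a)]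

namespace Ext2

variable {K M : Subgroup G} {r : G} (h : Ext2 K M r)
include h

theorem le : M ≤ K := fun x m => (h.mem x).2 (.inl m)
theorem sq {x : G} (m : x ∈ K) : x * x ∈ M := by_contra fun e => e (h.mul x m x m (fun a => e (mul_mem a a)) fun a => e (mul_mem a a))
theorem cj' {k x : G} (m : k ∈ K) (e : k * x * k⁻¹ ∈ M) : x ∈ M := cj_back k x ▸ h.cj _ (inv_mem m) _ e

theorem pow_odd {x : G} (m : x ∈ K) {n : ℕ} (hn : Odd n) : x ^ n ∈ M ↔ x ∈ M := by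
  obtain ⟨k, rfl⟩ := hn
  rw [pow_succ, pow_mul, _root_.sq, M.mul_mem_cancel_left (pow_mem (h.sq m) k)]

end Ext2

variable [Finite G]

theorem tr_ext (S : Sylow 2 G) {M : Subgroup G} (h2 : ∀ x ∈ (S : Subgroup G), ∀ y ∈ (S : Subgroup G), x ∉ M → y ∉ M → x * y ∈ M)
    {y c : G} (hy : y * y = 1) (hG : y ∈ pResidual 2 G ⊔ _root_.commutator G) (c4 : c ^ 2 ^ 2 = 1) (e : c * y = y * c) :
    ∃ g, g * y * g⁻¹ ∈ M ∧ g * c * g⁻¹ ∈ (S : Subgroup G) := by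
  have i : (M.subgroupOf S).index = 1 ∨ (M.subgroupOf S).index = 2 := or_iff_not_imp_left.2 fun n => by
    obtain ⟨a, ha⟩ : ∃ a, a ∉ M.subgroupOf S := by simpa only [index_eq_one, eq_top_iff', not_forall] using n
    refine index_eq_two_iff.2 ⟨a, fun b => ?_⟩
    by_cases hb : b ∈ M.subgroupOf S
    exacts [.inr ⟨hb, mt (Subgroup.mul_mem_cancel_left _ hb).1 ha⟩, .inl ⟨h2 _ b.2 _ a.2 hb ha, hb⟩]
  have : (M.subgroupOf S).Normal := i.elim (fun e => index_eq_one.1 e ▸ inferInstance) normal_of_index_eq_two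
  obtain ⟨g, a, -, b⟩ := Transfer.exists_conj_mem_and_conj_le S (T := M)
    (i.elim (fun e => have := (Nat.card_eq_one_iff_unique.1 e).1; isCyclic_of_subsingleton) fun e => isCyclic_of_prime_card e) hy hG
    (isPGroup_zpowers c4) (zpowers_le.2 (mem_centralizer_singleton_iff.2 e))
  exact ⟨g, a, b ⟨c, mem_zpowers c, rfl⟩⟩

theorem sylow_le {K : Subgroup G} (P : Sylow 2 G) (h : ∀ x ∈ (P : Subgroup G), (∀ a ∈ K, a ∈ (P : Subgroup G) → x * a * x⁻¹ ∈ K) → x ∈ K) :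
    (P : Subgroup G) ≤ K := by_contra fun e => by
  obtain ⟨x, a, b, -, c⟩ := PGroup.exists_mem_normalizer_of_lt P.2 (H := K ⊓ P) (inf_lt_right.2 e)
  exact b ⟨h x a fun y m n => ((mem_normalizer_iff.1 c y).1 ⟨m, n⟩).1, a⟩

theorem kill4 (hG : pResidual 2 G = ⊤) {M : Subgroup G} {r s a y : G} (hn : ∀ x ∈ M, r * x * r⁻¹ ∈ M) (h2 : r * r ∈ M)
    (hC : ∀ c, c * s = s * c → c ∈ M ∨ c * r ∈ M) (fus : ∀ j ∈ M, IsConj s j → ∃ k ∈ M, k * s * k⁻¹ = j) (a1 : a ∉ M)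
    (a2 : a * r ∈ M) {n : ℕ} (o : Odd n) (a3 : (a * a) ^ n = 1) (my : y ∈ M) (ya : y * a = a * y) (y4 : y ^ 2 ^ 2 = 1)
    (jy : IsConj s (y * y)) : False := by
  obtain ⟨K, h⟩ := exists_ext2 hn h2
  have key : ∀ g, g * y * g⁻¹ ∈ K → g ∈ K := fun g m => by
    obtain ⟨k, mk, e⟩ := fus _ (h.sq m) (jy.trans (isConj_iff.2 ⟨g, (conj_mul).symm⟩))
    obtain ⟨l, ml, f⟩ := fus _ (mul_mem my my) jy
    have := (h.mem (k⁻¹ * (g * l))).2 (hC _ (comm_of_cj (by rw [← cj_cj, ← cj_cj, f]; exact cj_inv (e.trans conj_mul))))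
    rwa [K.mul_mem_cancel_left (inv_mem (h.le mk)), K.mul_mem_cancel_right (h.le ml)] at this
  obtain ⟨S, hS⟩ := (isPGroup_zpowers y4).exists_le_sylow
  have le := sylow_le S fun x _ e => key x (e y (h.le my) (hS (mem_zpowers y)))
  obtain ⟨g, b, c⟩ := tr_ext S (M := M) (fun x m z m' => h.mul x (le m) z (le m')) (y := a ^ n)
    (by rw [← Commute.mul_pow (Commute.refl a), a3]) (hG ▸ mem_sup_left (mem_top _)) y4 (comm_pow ya.symm n).symm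
  exact a1 ((h.pow_odd ((h.mem a).2 (.inr a2)) o).1 (h.cj' (key g (le c)) b))

/-- the configuration `C(σ) = 2 × S₅` -/
structure FK2 (S E I : Subgroup G) (σ t u ρ τ f ε : G) (JJ TT II : G → Prop) : Prop where
  cJ : ∀ a g, JJ a → JJ (g * a * g⁻¹)
  cT : ∀ a g, TT a → TT (g * a * g⁻¹)
  cI : ∀ a g, II a → II (g * a * g⁻¹)
  tj : ∀ a, TT a → JJ a
  jq : ∀ a, JJ a → a * a = 1
  js : JJ σ
  ns : ¬ TT σ
  tt : TT t
  nt : ¬ JJ τ
  t2 : τ * τ = 1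
  u1 : u ≠ 1
  r1 : ρ * t * ρ⁻¹ = u
  r2 : ρ * u * ρ⁻¹ = t * u
  ts : τ * σ * τ⁻¹ = σ * u
  two : IsPGroup 2 S
  le : E ≤ S
  ms : σ ∈ S
  mt : τ ∈ S
  m1 : t ∈ S
  m2 : u ∈ S
  c1 : ∀ a ∈ S, a * t = t * a
  c2 : ∀ a ∈ S, a * u = u * a
  f1 : ∀ a ∈ S, a * a = 1 → a ∈ E ∨ ¬ JJ a ∧ ∃ x ∈ [t, u, t * u], ∃ y ∈ [t, u, t * u], II (a * x) ∧ ¬ II (a * y)
  f2 : ∀ a ∈ E, a = 1 ∨ a ∈ [t, u, t * u] ∨ ∃ k ∈ S, k * σ * k⁻¹ = a
  al : ∀ x ∈ I, x * σ = σ * x → x * t = t * x → x ^ 4 = 1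
  be : ∀ x ∈ I, x * σ = σ * x → x * t * x⁻¹ * t = t * (x * t * x⁻¹) → x ^ 3 ∈ E
  ga : f * t * f⁻¹ * t ≠ t * (f * t * f⁻¹)
  e2 : ε * ε = 1
  es : ε * σ = σ * ε
  et : ε * t = t * ε
  eS : ∀ a ∈ S, ε * a * ε⁻¹ ∈ S
  nI : ε ∉ I
  cs : ∀ x, x * σ = σ * x → x ∈ I ∨ x * ε ∈ I
  sI : ∀ a ∈ S, a * σ = σ * a → a ∈ I
  jS : ∀ a, a * ε ∈ S → ¬ JJ a
  r3 : ρ ^ 3 = 1
  f5 : f ^ 5 = 1
  gen : ∀ K : Subgroup G, τ ∈ K → ρ * τ * ρ⁻¹ ∈ K → σ ∈ K → S ≤ K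
  rel : τ * (ρ * τ * ρ⁻¹) * (ρ * (ρ * τ * ρ⁻¹) * ρ⁻¹) ∈ E

theorem FK2.false {S E I : Subgroup G} {σ t u ρ τ f ε : G} {JJ TT II : G → Prop} (h : FK2 S E I σ t u ρ τ f ε JJ TT II) : False := by
  obtain ⟨K, k⟩ := exists_ext2 h.eS (h.e2 ▸ one_mem S)
  have jK : ∀ a ∈ K, JJ a → a ∈ S := fun a m j => ((k.mem a).1 m).resolve_right fun e => h.jS a e j
  have sg : ∀ x, x * σ * x⁻¹ ∈ K → ∃ l ∈ S, l⁻¹ * x * σ = σ * (l⁻¹ * x) := fun x m => by
    have a := h.cJ _ x h.js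
    rcases h.f2 _ ((h.f1 _ (jK _ m a) (h.jq _ a)).resolve_right fun e => e.1 a) with e | e | ⟨l, ml, e⟩
    · refine absurd ?_ h.u1
      have := h.ts
      rwa [conj_eq_one_iff.1 e, mul_one, mul_inv_cancel, one_mul, eq_comm] at this
    · have tu := h.r1 ▸ h.cT _ ρ h.tt
      refine absurd (cj_back x σ ▸ h.cT _ x⁻¹ ?_) h.ns
      simp only [List.mem_cons, List.not_mem_nil, or_false] at e
      rcases e with e | e | e <;> rw [e]
      exacts [h.tt, tu, h.r2 ▸ h.cT _ ρ tu]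
    · exact ⟨l, ml, comm_of_cj (by rw [← cj_cj, ← e, cj_inv rfl])⟩
  have mε : ε ∈ K := (k.mem ε).2 (.inr (h.e2 ▸ one_mem S))
  have be' : ∀ x, x * σ = σ * x → x * t * x⁻¹ * t = t * (x * t * x⁻¹) → x ∉ I → (x * ε) ^ 3 ∈ E := fun x a b c =>
    h.be _ ((h.cs x a).resolve_left c) (comm_mul a h.es) (by rwa [← cj_cj, cj_of_comm h.et])
  have two : IsPGroup 2 K := fun ⟨x, m⟩ =>
    have ⟨n, e⟩ := h.two ⟨_, k.sq m⟩
    ⟨n + 1, Subtype.ext (by rw [coe_pow, pow_succ', pow_mul, _root_.sq]; exact congrArg Subtype.val e)⟩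
  obtain ⟨P, hP⟩ := two.exists_le_sylow
  have le : (P : Subgroup G) ≤ K := sylow_le P fun x mx e => by
    obtain ⟨l, ml, a⟩ := sg x (e _ (k.le h.ms) (hP (k.le h.ms)))
    have b : l⁻¹ * x * t * (l⁻¹ * x)⁻¹ ∈ S := cj_cj l⁻¹ x t ▸ mul_mem (mul_mem (inv_mem ml)
      (jK _ (e _ (k.le h.m1) (hP (k.le h.m1))) (h.cJ _ x (h.tj _ h.tt)))) (inv_mem (inv_mem ml))
    have c : ∀ y ∈ (P : Subgroup G), y ^ 3 ∈ E → y ∈ K := fun y m d =>
      have ⟨n, hn⟩ := P.2 ⟨y, m⟩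
      mem_of_pow_coprime (Nat.Coprime.pow_right n (by norm_num)) (k.le (h.le d))
        (Set.mem_of_eq_of_mem (congrArg Subtype.val hn) (one_mem K))
    have m := mul_mem (inv_mem (hP (k.le ml))) mx
    rw [← K.mul_mem_cancel_left (inv_mem (k.le ml))]
    by_cases i : l⁻¹ * x ∈ I
    · exact c _ m (h.be _ i a (h.c1 _ b))
    · exact (K.mul_mem_cancel_right mε).1 (c _ (mul_mem m (hP mε)) (be' _ a (h.c1 _ b) i))
  let N := pResidual 2 G ⊔ _root_.commutator G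
  have s2 := h.jq _ h.js
  have nN : ∀ e, e * e = 1 → σ * e = e * σ → e ∉ I → e ∉ N := fun e e2 c i m => by
    obtain ⟨g, a, b⟩ := tr_ext P (M := S) (fun x m z m' => k.mul x (le m) z (le m')) e2 m (c := σ)
      (by rw [pow_two, pow_mul, pow_two σ, s2, one_pow]) c
    obtain ⟨l, ml, d⟩ := sg g (le b)
    have := h.sI _ (cj_cj l⁻¹ g e ▸ mul_mem (mul_mem (inv_mem ml) a) (inv_mem (inv_mem ml))) (comm_mul (comm_mul d c.symm) (comm_inv d))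
    generalize l⁻¹ * g = y at d this
    refine i ?_
    rcases h.cs y d with j | j
    · rwa [I.mul_mem_cancel_right (inv_mem j), I.mul_mem_cancel_left j] at this
    · have j' := (h.cs e c.symm).resolve_left i
      refine absurd ?_ h.nI
      rw [show y * e * y⁻¹ = y * ε * (ε⁻¹ * (e * ε)) * (y * ε)⁻¹ by group, I.mul_mem_cancel_right (inv_mem j),
        I.mul_mem_cancel_left j, I.mul_mem_cancel_right j', inv_mem_iff] at this
      exact this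
  have cN : ∀ a b, a * b * a⁻¹ * b⁻¹ ∈ N := fun a b => mem_sup_right (commutator_mem_commutator (mem_top a) (mem_top b))
  have oN : ∀ {a : G} {n}, Odd n → a ^ n = 1 → a ∈ N := fun {a n} o e =>
    mem_sup_left (Transfer.mem_pResidual_of_coprime (p := 2) ((Nat.coprime_two_right.2 o).of_dvd_left (orderOf_dvd_of_pow_eq_one e)))
  obtain ⟨Y, y⟩ := exists_ext2 (M := N) (r := σ) (fun x m => by simpa using mul_mem (cN σ x) m) (s2 ▸ one_mem N)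
  have cY : ∀ g {a}, a ∈ Y → g * a * g⁻¹ ∈ Y := fun g a m => by simpa using mul_mem (y.le (cN g a)) m
  have cb : ∀ {a b c}, a⁻¹ * b ∈ Y → a⁻¹ * c ∈ Y → a * a ∈ Y → a * b * c ∈ Y → a ∈ Y := fun {a b c} p q r w => by
    rw [show a * b * c = a * a * (a⁻¹ * b) * a * (a⁻¹ * c) by group, Y.mul_mem_cancel_right q] at w
    exact (Y.mul_mem_cancel_left (mul_mem r p)).1 w
  have iY : ∀ g a, a⁻¹ * (g * a * g⁻¹) ∈ Y := fun g a => by simpa [mul_assoc] using y.le (cN a⁻¹ g)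
  have mσ : σ ∈ Y := (y.mem σ).2 (.inr (s2 ▸ one_mem N))
  have mu : u ∈ Y := (Y.mul_mem_cancel_left mσ).1 (h.ts ▸ cY τ mσ)
  have mt : t ∈ Y := (Y.mul_mem_cancel_right mu).1 (h.r2 ▸ cY ρ mu)
  have EY : E ≤ Y := fun a m => by
    rcases h.f2 a m with rfl | e | ⟨l, -, rfl⟩
    · exact one_mem Y
    · simp only [List.mem_cons, List.not_mem_nil, or_false] at e
      rcases e with rfl | rfl | rfl
      exacts [mt, mu, mul_mem mt mu]
    · exact cY l mσ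
  have mτ : τ ∈ Y := cb (iY ρ τ) (cj_cj ρ ρ τ ▸ iY (ρ * ρ) τ) (h.t2 ▸ one_mem Y) (EY h.rel)
  have SY := h.gen Y mτ (cY ρ mτ) mσ
  have nY : ε ∉ Y := fun m => ((y.mem ε).1 m).elim (nN ε h.e2 h.es.symm h.nI) (nN _
    (by rw [mul_assoc, ← mul_assoc σ, ← h.es, mul_assoc, s2, mul_one, h.e2]) (comm_mul h.es rfl).symm
    ((I.mul_mem_cancel_right (h.sI _ h.ms rfl)).not.2 h.nI))
  have inI : ∀ x ∈ Y, x * σ = σ * x → x * t * x⁻¹ * t = t * (x * t * x⁻¹) → x ∈ I := fun x m a b => by_contra fun i => by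
    have := EY (be' x a b i)
    rw [show (x * ε) ^ 3 = x * (ε * x * ε⁻¹) * (ε * ε) * x * ε by simp [pow_succ, mul_assoc], h.e2, mul_one] at this
    exact nY ((Y.mul_mem_cancel_left (mul_mem (mul_mem m (cY ε m)) m)).1 this)
  let t' : Y := ⟨t, mt⟩
  let u' : Y := ⟨u, mu⟩
  have li : ∀ x ∈ [t, u, t * u], ∃ x' ∈ [t', u', t' * u'], (x' : G) = x := by
    simp only [List.forall_mem_cons]
    exact ⟨⟨t', by simp, rfl⟩, ⟨u', by simp, rfl⟩, ⟨t' * u', by simp, rfl⟩, by simp⟩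
  refine FK.false (S := S.subgroupOf Y) (E := E.subgroupOf Y) (σ := ⟨σ, mσ⟩) (t := t') (u := u')
    (ρ := ⟨ρ, y.le (oN (by decide) h.r3)⟩) (τ := ⟨τ, mτ⟩) (f := ⟨f, y.le (oN (by decide) h.f5)⟩) (JJ := fun a => JJ a)
    (TT := fun a => TT a) (II := fun a => II a) ⟨fun a g => h.cJ a g, fun a g => h.cT a g, fun a g => h.cI a g, fun a => h.tj a,
      fun a p => Subtype.ext (h.jq a p), h.js, h.ns, h.tt, h.nt, Subtype.ext h.t2, fun e => h.u1 (congrArg Subtype.val e),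
      Subtype.ext h.r1, Subtype.ext h.r2, Subtype.ext h.ts, h.two.comap_subtype, fun _ m => h.le m, h.ms, h.mt, h.m1, h.m2,
      fun a m => Subtype.ext (h.c1 a m), fun a m => Subtype.ext (h.c2 a m),
      fun a m e => (h.f1 a m (congrArg Subtype.val e)).imp id fun e => ?_,
      fun a m => (h.f2 a m).imp Subtype.ext (Or.imp (fun e => ?_) fun ⟨l, ml, e⟩ => ⟨⟨l, SY ml⟩, ml, Subtype.ext e⟩),
      fun x a b => ?_, fun x a b => ?_, fun e => h.ga (congrArg Subtype.val e)⟩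
  · obtain ⟨p, x, mx, z, mz, q⟩ := e
    obtain ⟨x, m1, rfl⟩ := li x mx
    obtain ⟨z, m2, rfl⟩ := li z mz
    exact ⟨p, x, m1, z, m2, q⟩
  · obtain ⟨x, mx, e⟩ := li _ e
    exact Subtype.ext e ▸ mx
  · have b : (x : G) * t = t * x := congrArg Subtype.val b
    exact Subtype.ext (h.al _ (inI _ x.2 (congrArg Subtype.val a) (by rw [cj_of_comm b])) (congrArg Subtype.val a) b)
  · exact h.be _ (inI _ x.2 (congrArg Subtype.val a) (congrArg Subtype.val b)) (congrArg Subtype.val a) (congrArg Subtype.val b)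

end Cfsg.Lib.T2
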