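import Cfsg.Agent.Lib.Calc.RUE0
import Cfsg.Agent.Lib.Tits.Over

/-!
# The point stabiliser of the Rudvalis group is the Ree group over the field with two elements
-/

set_option autoImplicit false
set_option maxRecDepth 100000

namespace Cfsg.Lib.Big.RU

open Cfsg.Lib.Calc Cfsg.Lib.T2 Subgroup

/-- words for the letters -/
def pw : List (List ℕ) := [[], [7, 4, 6, 3, 1], [], [], [], [], [8, 6, 6, 0, 0], [], [0, 0, 9, 1, 7, 0, 0], [1, 6, 4, 6],
  [6, 1, 4, 6, 3], [6, 3, 0, 0, 0], [6, 6, 5, 0, 6]]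
/-- the letters -/
noncomputable def fl : List Tits.Γ := pw.map (Tits.ev (Tits.ul ++ Tits.gl.drop 2))
/-- their codes -/
noncomputable def FL : List ℕ := pw.map (Tits.wrd Tits.m52 Tits.o52 (Tits.UL ++ Tits.GL4.drop 2))
/-- the letters -/
noncomputable def gT (c : ℕ) : Tits.Γ := fl.getD c 1

theorem rl_fl : Tits.RL Tits.R fl FL := Tits.E.wrds (List.rel_append Tits.rl_ul (List.forall₂_drop 2 Tits.rl_gl)) pw

theorem gT_one {l : List (List ℕ)} (e : Tits.forceL FL (fun L => l.all fun w =>
    Nat.beq (Tits.wrd Tits.m52 Tits.o52 L w) Tits.o52) = true) : ∀ w ∈ l, (w.map gT).prod = 1 := fun w hw =>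
  Tits.E.eq (Tits.E.wrd rl_fl w) Tits.E.one (List.all_eq_true.1 ((Tits.forceL_eq _ _).symm.trans e) w hw)

theorem labT : Lab gT iv := ⟨rfl, fun c => by
  by_cases hc : c < 32
  · simpa using gT_one (l := (List.range 32).map fun c => [get 5 iv c, c]) (by decide +kernel) _
      (List.mem_map_of_mem (List.mem_range.2 hc))
  · rw [get_eq_zero (n := 32) (by decide) (not_lt.1 hc), gT, gT, List.getD_eq_default fl _ (n := c) (by change 13 ≤ c; omega)]
    exact mul_one _⟩

theorem relT : ∀ t ∈ tF_rels ++ (tP_rels ++ tT_rels), t.ev gT = 1 := fun t ht => W.prod_toList labT.inv t ▸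
  gT_one (l := (tF_rels ++ (tP_rels ++ tT_rels)).map (W.toList (get 5 iv))) (by decide +kernel) _ (List.mem_map_of_mem ht)

theorem newLet_gT : newLet gT mF = gT := funext fun c => by
  by_cases hc : c < 21
  · interval_cases c <;> rfl
  · rw [newLet, labW_of_lt (N := 20) (by decide) (by omega), gT, List.getD_eq_default fl _ (n := c) (by change 13 ≤ c; omega)]
    rfl

theorem mem_mF {G : Type*} [Group G] {γ : ℕ → G} (hL : Lab γ iv) (c : ℕ) : newLet γ mF c ∈ genW γ fs :=
  mem_genW_of_subOK (rels := []) hL hints (by simp) (by decide +kernel) _ (labW_mem mF c)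

theorem eq_of_rl {l l' : List Tits.Γ} {L : List ℕ} (h : Tits.RL Tits.R l L) (h' : Tits.RL Tits.R l' L) : l = l' := by
  induction h generalizing l' with
  | nil => cases h'; rfl
  | cons a _ ih => cases h' with
    | cons b c => rw [Tits.E.inj a b, ih c]

theorem topT : genW gT fs = ⊤ := by
  have a := Tits.E.wrds rl_fl [[8, 12, 10, 1, 11, 8, 10, 1], [12, 8, 12, 1, 9, 11, 8], [9, 1, 6, 10, 1, 6, 1],
    [8, 9, 12, 8, 11, 10, 8]]
  rw [show List.map _ _ = Tits.GL4 by decide +kernel] at a
  rw [eq_top_iff, ← Tits.cl_gl, Tits.cl_le, eq_of_rl Tits.rl_gl a]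
  refine List.forall_mem_map.2 fun w _ => Tits.ev_mem (fun g hg => ?_) w
  obtain ⟨i, hi, rfl⟩ := List.getElem_of_mem hg
  have := mem_mF labT i
  rwa [newLet_gT, gT, List.getD_eq_getElem _ 1 hi] at this

attribute [irreducible] gT

theorem labF : Lab (newLet gR mF) iv := Lab.newLet labR.zero (by decide) (by rw [gR]; exact valR'.rels lawR (by decide +kernel))

theorem relF : ∀ t ∈ tF_rels ++ (tP_rels ++ tT_rels), t.ev (newLet gR mF) = 1 :=
  rels_newLet (by rw [gR]; exact valR'.rels lawR (by decide +kernel))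

theorem isoT : IsoW (newLet gR mF) gT := by
  have f : fs.all (fixW mF) = true := by decide +kernel
  have q := QuoW.of_card_le (cardF' (labT.prod labF) (rels_pair relT relF)) (by rw [genW_fix f]; exact card_fs) fun c => by
    have := mem_mF (labT.prod labF) c
    rwa [newLet, W.ev_prod, show (labW mF c).ev gT = _ from congrFun newLet_gT c,
      show (labW mF c).ev (newLet gR mF) = _ from congrFun (newLet_newLet (by decide +kernel)) c] at this
  exact q.iso_of_card (ts := fs) (fun c => by rw [genW_fix f]; exact mem_mF labR c)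
    (by rw [topT, card_top, Tits.card_Γ]; exact (cardF' labF relF).2)

theorem over_P {M : Subgroup Tits.Γ} (h : 20480 ∣ Nat.card M) :
    M = ⊤ ∨ ∃ g, M.map (MulAut.conj g).toMonoidHom = Tits.L.T.P {Tits.i1} := by
  have h2 : ¬ 2 ∣ M.index := fun ⟨k, hk⟩ => by
    obtain ⟨m, hm⟩ := h
    have := M.card_mul_index
    rw [Tits.card_Γ, hk, hm] at this
    have : 8192 ∣ 35942400 := ⟨5 * m * k, by rw [← this]; ring⟩
    omega
  obtain ⟨P⟩ : Nonempty (Sylow 2 M) := inferInstance
  obtain ⟨g, hg⟩ := MulAction.exists_smul_eq Tits.Γ (P.2.map M.subtype |>.toSylow (by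
    rw [← relIndex_mul_index (map_subtype_le _), Nat.prime_two.dvd_mul, relIndex, subgroupOf,
      comap_map_eq_self_of_injective (subtype_injective _)]
    exact not_or.2 ⟨P.not_dvd_index, h2⟩)) Tits.sylU
  obtain ⟨J, e⟩ := Tits.L.exists_eq_P (M := M.map (MulAut.conj g).toMonoidHom)
    (Tits.B_eq.le.trans ((congrArg Sylow.toSubgroup hg).ge.trans (map_mono (map_subtype_le _))))
  rw [← card_map_of_injective (f := (MulAut.conj g).toMonoidHom) (MulEquiv.injective _), e] at h
  by_cases hJ : J = Set.univ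
  · rw [hJ, Tits.L.T.P_self] at e
    exact Or.inl (map_injective (MulEquiv.injective _) (e.trans (map_top_of_surjective _ (MulEquiv.surjective _)).symm))
  obtain ⟨i, hi⟩ := Tits.subset_single hJ
  have := card_dvd_of_le (Tits.L.T.P_mono hi)
  rcases Tits.ι_cases i with rfl | rfl
  · rw [Tits.card_P0] at this
    exact absurd (h.trans this) (by decide)
  · exact Or.inr ⟨g, e.trans (eq_of_le_of_card_ge (Tits.L.T.P_mono hi) (Tits.card_P1 ▸ Nat.le_of_dvd Nat.card_pos h))⟩

theorem card_conj (M : Subgroup Tits.Γ) (g : Tits.Γ) : Nat.card (M.map (MulAut.conj g).toMonoidHom) = Nat.card M :=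
  card_map_of_injective (MulEquiv.injective _)

theorem conj_P {M : Subgroup Tits.Γ} (h : Nat.card M = 20480) :
    ∃ g, M.map (MulAut.conj g).toMonoidHom = Tits.L.T.P {Tits.i1} :=
  (over_P h.symm.dvd).resolve_left fun e => by rw [e, card_top, Tits.card_Γ] at h; omega

theorem card_gT : Nat.card (genW gT ps) = 20480 := by rw [← isoT.card_eq, genW_fix (by decide +kernel), card_ps]

theorem cen_gT : centralizer {(labW lP 7).ev gT} = genW gT ps := by
  have q := newLet_gT ▸ isoT.quo
  have a : genW gT ps ≤ centralizer {(labW lP 7).ev gT} := genW_le_centralizer fun t ht =>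
    eqM q (s := .mul t (labW lP 7)) (t := .mul (labW lP 7) t) (by revert t; decide +kernel)
  rcases over_P (card_gT ▸ card_dvd_of_le a) with e | ⟨g, e⟩
  · exact absurd (isoT.symm.quo.ev_eq (s := .mul (.l 6) (labW lP 7)) (t := .mul (labW lP 7) (.l 6))
      (mem_centralizer_singleton_iff.1 (e.ge trivial))) (by
        rw [ev_fix (by decide +kernel), ev_fix (by decide +kernel)]; exact rne (by decide +kernel))
  · exact (eq_of_le_of_card_ge a (by rw [← card_conj _ g, e, Tits.card_P1, card_gT])).symm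

theorem exists_hom_map {G H : Type*} [Group G] [Group H] {F M : Subgroup G} (e : F ≃* H) (hM : M ≤ F) {B P : Subgroup H}
    (h : ∀ A : Subgroup H, Nat.card A = Nat.card M → ∃ g, A.map (MulAut.conj g).toMonoidHom = P) (hc : Nat.card B = Nat.card M) :
    ∃ j : H →* G, Function.Injective j ∧ j.range = F ∧ B.map j = M := by
  obtain ⟨g, a⟩ := h ((M.subgroupOf F).map e.toMonoidHom) (by
    rw [card_map_of_injective e.injective, Nat.card_congr (subgroupOfEquivOfLe hM).toEquiv])
  obtain ⟨k, b⟩ := h B hc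
  obtain ⟨i, hi⟩ : ∃ i : H ≃* F, B.map i.toMonoidHom = M.subgroupOf F :=
    ⟨(MulAut.conj k).trans ((MulAut.conj g).symm.trans e.symm), by
      apply map_injective (f := (MulAut.conj g).toMonoidHom.comp e.toMonoidHom) ((MulAut.conj g).injective.comp e.injective)
      rw [← map_map (M.subgroupOf F), a, ← b, map_map]
      congr 1
      ext x
      simp [mul_assoc]⟩
  exact ⟨F.subtype.comp i.toMonoidHom, (subtype_injective F).comp i.injective, by
    rw [MonoidHom.range_eq_map, ← map_map, map_top_of_surjective _ i.surjective, ← MonoidHom.range_eq_map, range_subtype],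
    by rw [← map_map, hi, subgroupOf_map_subtype, inf_eq_left.2 hM]⟩

/-- Letters in a group isomorphic to the Ree group, adapted to a subgroup of order `20480`. -/
theorem exists_let {G : Type*} [Group G] {F M : Subgroup G} (e : F ≃* Tits.Γ) (hM : M ≤ F) (hc : Nat.card M = 20480) :
    ∃ δ : ℕ → G, IsoW (newLet gR mF) δ ∧ genW δ fs = F ∧ genW δ ps = M ∧
      ∀ c ∈ F, c * (labW lP 7).ev δ = (labW lP 7).ev δ * c → c ∈ M := by
  obtain ⟨j, j1, j2, j3⟩ := @exists_hom_map _ Tits.Γ _ inferInstance _ _ e hM _ _ (fun _ a => conj_P (a.trans hc)) (card_gT.trans hc.symm)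
  refine ⟨fun c => j (gT c), isoT.trans (IsoW.of_hom j j1 _), ?_, (map_genW j _ _).symm.trans j3, fun c hc f => ?_⟩
  · rw [← map_genW, topT, ← MonoidHom.range_eq_map, j2]
  · obtain ⟨d, rfl⟩ := j2.ge hc
    rw [← W.map_ev, ← map_mul, ← map_mul] at f
    rw [← j3, ← cen_gT]
    exact ⟨d, mem_centralizer_singleton_iff.2 (j1 f), rfl⟩

end Cfsg.Lib.Big.RU
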