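import Cfsg.Agent.Lib.Calc.RUE1
import Cfsg.Agent.Lib.Calc.RUE2

/-!
# The Rudvalis group as a rank three permutation group
-/

set_option autoImplicit false
set_option maxRecDepth 100000
set_option linter.unusedSectionVars false

namespace Cfsg.Lib.Big.RU

open Cfsg.Lib.Calc Cfsg.Lib.T2 Cfsg.Lib.ES Subgroup MulAction

variable {G Ω : Type*} [Group G] [MulAction G Ω] {θ δ : ℕ → G} {s g : G} {p q : Ω}

local notation "𝐊" θ:max k:max => genW θ (PM.ws pp k)

theorem impL_iff {K : ℕ → Subgroup G} {S : List W} {φ : Fm} {l : List (W × W)} :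
    (impL S φ l).holds K θ ↔ ((∀ r ∈ l, (r.1.subst S).ev θ = (r.2.subst S).ev θ) → φ.holds K θ) := by
  induction l with
  | nil => exact ⟨fun h _ => h, fun h => h fun _ h => nomatch h⟩
  | cons r l ih => exact (imp_congr_right fun _ => ih).trans (by rw [List.forall_mem_cons, and_imp]; rfl)

theorem evu {x : G} {l : List W} (e : l.all (avoid 100) = true) {w : W} (hw : w ∈ l) : w.ev (upd θ 100 x) = w.ev θ :=
  ev_upd (List.all_eq_true.1 e w hw)

theorem Acts.div {t : G} {L L' L'' : List (W × W)} (a : Acts θ s L) (b : Acts θ t L') (e : divB L L' L'' = true) :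
    Acts θ (t * s⁻¹) L'' := fun r hr => by
  obtain ⟨x, hx, f⟩ := List.any_eq_true.1 (List.all_eq_true.1 e r hr)
  obtain ⟨y, hy, f⟩ := List.any_eq_true.1 f
  rw [band_eq_true, band_eq_true] at f
  rw [← cj_cj, ← W.eq_of_beq f.2.1, ← W.eq_of_beq f.2.2, ← a x hx, cj_back, W.eq_of_beq f.1, b y hy]

theorem Acts.cons {a b : ℕ} {L : List (W × W)} (A : Acts θ g L) (e : g * θ a * g⁻¹ = θ b) : Acts θ g ((.l a, .l b) :: L) :=
  List.forall_mem_cons.2 ⟨e, A⟩

theorem Acts.fix {L : List (W × W)} (a : Acts θ g L) (h0 : θ 0 = 1) {k : W} (e : fixW (L.map Prod.fst) k = true) :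
    g * k.ev θ * g⁻¹ = (k.subst (L.map Prod.snd)).ev θ := by rw [← a.ev h0, W.eq_of_beq e]

/-- `g` exchanges the two points -/
def Ex (p q : Ω) (g : G) : Prop := g • p = q ∧ g • q = p

/-- The letters describe the stabiliser of two points. -/
structure Rp (θ : ℕ → G) (s : G) (p q : Ω) : Prop where
  I : IsoW pp.gam θ
  st : ∀ g, g ∈ 𝐊 θ 0 ↔ g • p = p ∧ g • q = q
  sp : s • p = p
  s2 : s * s = 1
  s3 : s * (θ 5 * s) = θ 5 * (s * θ 5)
  sz : s * θ 7 * s⁻¹ = θ 14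
  sT : Acts θ s (pos 1 aS)
  cen : ∀ c, c • p = p → c * θ 7 = θ 7 * c → c • q = q
  fix : ∀ x, 32 ∣ Nat.card (stabilizer G p ⊓ stabilizer G x : Subgroup G) → x = p ∨ ∃ f : G, f • p = p ∧ f • q = x
  ne : q ≠ p
  tr : ∃ k : G, k • p = q
  h3 : ∀ e ∈ e2, ∃ k : G, k • p = p ∧ k * e.ev θ = e.ev θ * k ∧ orderOf k = 3

namespace Rp

variable [Finite G] (h : Rp θ s p q)
include h

theorem eq {u t : W} (e : pp.eval (.eq u t) = true) : u.ev θ = t.ev θ := pp_ok.transfer h.I (φ := .eq u t) e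
theorem rq {x y : G} {s t : W} [a : Rf θ x s] [b : Rf θ y t] (e : pp.eval (.eq s t) = true) : x = y := a.e ▸ b.e ▸ h.eq e
theorem rn {x y : G} {s t : W} [a : Rf θ x s] [b : Rf θ y t] (e : pp.eval (.not (.eq s t)) = true) : x ≠ y :=
  a.e ▸ b.e ▸ pp_ok.transfer h.I (φ := .not (.eq s t)) e
theorem zero : θ 0 = 1 := h.I.quo (.l 0) pp_ok.zero
theorem ovr {k : ℕ} {t : W} (e : t.overW (pp.ws k) = true) : t.ev θ ∈ 𝐊 θ k := W.ev_mem_of_overW h.zero (fun _ => mem_genW θ) e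
theorem mem (t : W) : t.ev θ ∈ 𝐊 θ 0 := pp_ok.ev_mem h.I.quo t
theorem ml (c : ℕ) : θ c ∈ 𝐊 θ 0 := h.mem (.l c)
theorem le (k : ℕ) : 𝐊 θ k ≤ 𝐊 θ 0 := pp_ok.le_zero h.I.quo _
theorem com {k c : ℕ} (e : pp.eval (comF (.l c) (pp.ws k)) = true) {b : G} (hb : b ∈ 𝐊 θ k) : b * θ c = θ c * b :=
  mem_centralizer_singleton_iff.1 (genW_le_centralizer (fun t ht => (comF_iff.1 (pp_ok.transfer h.I e) t ht).symm) hb)
theorem zP {b : G} (hb : b ∈ 𝐊 θ 0) : b * θ 7 = θ 7 * b := h.com (by decide +kernel) hb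
theorem card (k : ℕ) : Nat.card (𝐊 θ k) = Nat.card (pp.K k) := (h.I.card_eq _).symm
theorem fp {b : G} (hb : b ∈ 𝐊 θ 0) : b • p = p := ((h.st b).1 hb).1
theorem fq {b : G} (hb : b ∈ 𝐊 θ 0) : b • q = q := ((h.st b).1 hb).2

theorem word {w : W} {L : List (W × W)} (e : wrdB w L = true) : Acts θ (w.ev θ) L :=
  fun r hr => mul_inv_eq_iff_eq_mul.2 (h.eq (u := .mul w r.1) (t := .mul r.2 w) (List.all_eq_true.1 e r hr))

theorem act {L L' : List (W × W)} (a : Acts θ g L) (D : List W) (e : actB L D L' = true) : Acts θ g L' := fun r hr => by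
  obtain ⟨d, -, f⟩ := List.any_eq_true.1 (List.all_eq_true.1 e r hr)
  have f := pp_ok.transfer h.I f
  exact (show r.1.ev θ = _ from f.1) ▸ (a.ev h.zero d).trans f.2

theorem mul {t : G} {L L' L'' : List (W × W)} (a : Acts θ g L) (b : Acts θ t L') (e : mulB L L' L'' = true) :
    Acts θ (g * t) L'' := fun r hr => by
  obtain ⟨x, hx, f⟩ := List.any_eq_true.1 (List.all_eq_true.1 e r hr)
  rw [band_eq_true, band_eq_true] at f
  rw [← cj_cj, ← W.eq_of_beq f.1.1, b x hx, ← h.eq f.2, a.fix h.zero f.1.2]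

theorem srch {k : ℕ} {L : List (W × W)} {φ : Fm} (hg : g ∈ 𝐊 θ k) (a : Acts θ g L) (e : pp.eval (.all k 100 L φ) = true) :
    φ.holds (fun k => 𝐊 θ k) (upd θ 100 g) :=
  imps_iff.1 (pp_ok.transfer h.I e g hg) fun r hr => mul_inv_eq_iff_eq_mul.1 (a r hr)

theorem one {k : ℕ} {L : List (W × W)} {l : List W} (hg : g ∈ 𝐊 θ k) (a : Acts θ g L) (e : pp.eval (.all k 100 L (orEq 100 l)) = true)
    (f : l.all (avoid 100) = true) : ∃ w ∈ l, g = w.ev θ :=
  (orEq_iff.1 (h.srch hg a e)).imp fun _ b => ⟨b.1, b.2.trans (evu f b.1)⟩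

theorem nrm {k : ℕ} {L : List (W × W)} (a : Acts θ g L) (e : nrmB k L = true) {x : Ω} (hx : ∀ t ∈ 𝐊 θ k, t • x = x) :
    ∀ t ∈ 𝐊 θ k, t • g • x = g • x := fun t ht => by
  have : g ∈ normalizer (𝐊 θ k : Set G) := mem_normalizer_fintype fun _ hy => (genW_le (H := (𝐊 θ k).comap (MulAut.conj g).toMonoidHom)).2
    (fun w hw => by
      obtain ⟨r, b, f⟩ := List.any_eq_true.1 (List.all_eq_true.1 e w hw)
      rw [band_eq_true] at f
      change g * _ * g⁻¹ ∈ 𝐊 θ k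
      rw [← W.eq_of_beq f.1, a r b]
      exact h.ovr f.2) hy
  rw [← inv_smul_eq_iff, ← mul_smul, ← mul_smul]
  exact hx _ (mem_normalizer_iff''.1 this t |>.1 ht)

theorem zq {f k : G} (hf : f • p = p) (hk : k • p = p) : f • q = k • q ↔ f * θ 7 * f⁻¹ = k * θ 7 * k⁻¹ := by
  have m : (k⁻¹ * f) • p = p := by rw [mul_smul, hf, inv_smul_eq_iff, hk]
  rw [← inv_smul_eq_iff, ← mul_smul]
  refine ⟨fun e => ?_, fun e => h.cen _ m (comm_of_cj (by rw [← cj_cj, e, cj_back]))⟩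
  rw [← cj_back k⁻¹ (f * _ * _), cj_cj k⁻¹, cj_of_comm (h.zP ((h.st _).2 ⟨m, e⟩)), inv_inv]

theorem cq {f b : G} (hf : f • p = p) (hb : b ∈ 𝐊 θ 0) : f • q = b • s • q ↔ f * θ 7 * f⁻¹ = b * θ 14 * b⁻¹ := by
  rw [← mul_smul, h.zq hf (by rw [mul_smul, h.sp, h.fp hb]), ← cj_cj, h.sz]

theorem cc {b c : G} (hb : b ∈ 𝐊 θ 0) (hc : c ∈ 𝐊 θ 0) : b • s • q = c • s • q ↔ b * θ 14 * b⁻¹ = c * θ 14 * c⁻¹ := by
  rw [← mul_smul, h.cq (by rw [mul_smul, h.sp, h.fp hb]) hc, ← cj_cj, h.sz]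

theorem c1 {b : G} (hb : b ∈ 𝐊 θ 0) : b • s • q = s • q ↔ b * θ 14 * b⁻¹ = θ 14 := by
  simpa using h.cc hb (one_mem _)

theorem np {b : G} (hb : b ∈ 𝐊 θ 0) : b • s • q ≠ p := fun e => h.ne (by
  rw [← h.fp hb, smul_left_cancel_iff, ← h.sp, smul_left_cancel_iff] at e; exact e)

theorem nq {b : G} (hb : b ∈ 𝐊 θ 0) : b • s • q ≠ q := fun e => by
  rw [← h.fq hb, smul_left_cancel_iff, h.fq hb, ← one_smul G q, smul_smul, mul_one, h.zq h.sp (one_smul _ _), h.sz] at e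
  exact h.rn (by decide +kernel) e

theorem fx {k : ℕ} (hk : 32 ∣ Nat.card (pp.K k)) (hz : pp.eval (.mem k (.l 7)) = true) {l : List W}
    (e : pp.eval (.all 0 100 ((pp.ws k).map fun s => (s, s)) (orEq 100 l)) = true) (f : l.all (avoid 100) = true) {x : Ω}
    (hx : ∀ t ∈ 𝐊 θ k, t • x = x) : x = p ∨ ∃ f : G, f • p = p ∧ f • q = x ∧ ∃ w ∈ l, f * θ 7 * f⁻¹ = w.ev θ := by
  refine (h.fix x (hk.trans (h.card k ▸ card_dvd_of_le fun t ht => ⟨h.fp (h.le k ht), hx t ht⟩))).imp_right ?_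
  rintro ⟨c, a, rfl⟩
  have m : ∀ t ∈ 𝐊 θ k, c * θ 7 * c⁻¹ * t = t * (c * θ 7 * c⁻¹) := fun t ht => (comm_of_cj ((cj_cj _ _ _).trans
    ((h.zq (by rw [mul_smul, a, h.fp (h.le k ht)]) a).1 (by rw [mul_smul, hx t ht])))).symm
  have b : (c * θ 7 * c⁻¹) • p = p := by rw [mul_smul, mul_smul, inv_smul_eq_iff.2 a.symm, h.fp (h.ml 7), a]
  exact ⟨c, a, rfl, h.one ((h.st _).2 ⟨b, h.cen _ b (m _ (pp_ok.transfer h.I hz))⟩)
    (List.forall_mem_map.2 fun t ht => cj_of_comm (m _ (mem_genW θ ht))) e f⟩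

theorem z1 {f : G} : f * θ 7 * f⁻¹ ≠ θ 0 := fun e => h.rn (by decide +kernel) (conj_eq_one_iff.1 (e.trans h.zero))

theorem zz {f : G} (hf : f • p = p) (e : f * θ 7 * f⁻¹ = θ 7) : f • q = q := h.cen f hf (comm_of_cj e)

theorem fT {x : Ω} (hx : ∀ t ∈ 𝐊 θ 1, t • x = x) : x = p ∨ x = q ∨ x = s • q ∨ x = θ 5 • s • q := by
  refine (h.fx (pp_card1 ▸ by decide) (by decide +kernel) f_T_ev rfl hx).imp_right ?_
  rintro ⟨f, a, rfl, w, b, e⟩
  simp only [List.mem_cons, List.not_mem_nil, or_false] at b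
  rcases b with rfl | rfl | rfl | rfl
  exacts [(h.z1 e).elim, .inl (h.zz a e), .inr (.inl ((h.zq a h.sp).2 (e.trans h.sz.symm))),
    .inr (.inr ((h.cq a (h.ml 5)).2 (e.trans (h.eq (t := .mul (.mul (.l 5) (.l 14)) (.inv (.l 5))) (by decide +kernel)))))]

theorem fX {x : Ω} (hx : ∀ t ∈ 𝐊 θ 2, t • x = x) :
    (x = p ∨ x = q ∨ x = s • q ∨ x = θ 5 • s • q) ∨ x = θ 6 • s • q ∨ x = θ 6 • θ 5 • s • q := by
  refine (h.fx (pp_card2 ▸ by decide) (by decide +kernel) f_X_ev rfl hx).elim (fun e => .inl (.inl e)) ?_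
  rintro ⟨f, a, rfl, w, b, e⟩
  simp only [List.mem_cons] at b
  rcases b with rfl | rfl | rfl | rfl | rfl | rfl | b
  · exact (h.z1 e).elim
  · exact .inl (.inr (.inl (h.zz a e)))
  · exact .inl (.inr (.inr (.inl ((h.zq a h.sp).2 (e.trans h.sz.symm)))))
  · exact .inl (.inr (.inr (.inr ((h.cq a (h.ml 5)).2 (e.trans (h.eq (t := .mul (.mul (.l 5) (.l 14)) (.inv (.l 5)))
      (by decide +kernel)))))))
  · exact .inr (.inl ((h.cq a (h.ml 6)).2 (e.trans (h.eq (t := .mul (.mul (.l 6) (.l 14)) (.inv (.l 6))) (by decide +kernel)))))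
  · exact .inr (.inr (((h.cq a (h.mem (wd [6, 5]))).2 (e.trans (h.eq (t := .mul (.mul (wd [6, 5]) (.l 14)) (.inv (wd [6, 5])))
      (by decide +kernel)))).trans (mul_smul _ _ _)))
  obtain ⟨k, c, d, o⟩ := h.h3 w b
  have m : (f⁻¹ * k * f⁻¹⁻¹) • p = p := by rw [inv_inv, mul_smul, mul_smul, a, c, inv_smul_eq_iff, a]
  have := cj_comm (k := f⁻¹) d
  rw [← e, cj_back] at this
  have := orderOf_dvd_natCard (⟨_, (h.st _).2 ⟨m, h.cen _ m this⟩⟩ : 𝐊 θ 0)
  rw [orderOf_mk, orderOf_conj_eq, o, h.card, pp_card0] at this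
  exact absurd this (by decide)

theorem exists_ex : ∃ g : G, Ex p q g := by
  obtain ⟨k, a⟩ := h.tr
  rcases h.fix (k⁻¹ • p) (Dvd.dvd.trans (by
    rw [card_map_of_injective (f := (MulAut.conj k⁻¹).toMonoidHom) (MulEquiv.injective _), h.card 0, pp_card0]; decide)
      (card_dvd_of_le (map_le_iff_le_comap.2 fun t ht => ⟨show (k⁻¹ * t * k⁻¹⁻¹) • p = p by
        rw [inv_inv, mul_smul, mul_smul, a, h.fq ht, inv_smul_eq_iff, a], show (k⁻¹ * t * k⁻¹⁻¹) • k⁻¹ • p = _ by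
          rw [inv_inv, mul_smul, mul_smul, smul_inv_smul, h.fp ht]⟩))) with e | ⟨f, b, e⟩
  · exact absurd (a.symm.trans (inv_smul_eq_iff.1 e).symm) h.ne
  · exact ⟨k * f, by rw [mul_smul, b, a], by rw [mul_smul, e, smul_inv_smul]⟩

theorem ex_mul (hg : Ex p q g) {b : G} (hb : b ∈ 𝐊 θ 0) : Ex p q (b * g) :=
  ⟨by rw [mul_smul, hg.1, h.fq hb], by rw [mul_smul, hg.2, h.fp hb]⟩

theorem ex_cj (hg : Ex p q g) {b : G} (hb : b ∈ 𝐊 θ 0) : g * b * g⁻¹ ∈ 𝐊 θ 0 := (h.st _).2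
  ⟨by rw [mul_smul, mul_smul, inv_smul_eq_iff.2 hg.2.symm, h.fq hb, hg.2],
    by rw [mul_smul, mul_smul, inv_smul_eq_iff.2 hg.1.symm, h.fp hb, hg.1]⟩

theorem exists_w : ∃ g : G, Ex p q g ∧ g * θ 8 * g⁻¹ = θ 8 := by
  obtain ⟨g, hg⟩ := h.exists_ex
  have : Fact (Nat.Prime 5) := ⟨Nat.prime_five⟩
  have o : orderOf (θ 8) = 5 := orderOf_eq_prime (h.rq (by decide +kernel)) (h.rn (by decide +kernel))
  obtain ⟨k, a, b⟩ := exists_conj_le_of_not_dvd (p := 5) (H := 𝐊 θ 3) (K := 𝐊 θ 0) (R := zpowers (g * θ 8 * g⁻¹)) (by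
      have c := relIndex_mul_card (h.le 3)
      rw [h.card, h.card, pp_card0, pp_card3] at c
      omega)
    (IsPGroup.of_card (n := 1) (by rw [Nat.card_zpowers, orderOf_conj_eq, o, pow_one])) (zpowers_le.2 (h.ex_cj hg (h.ml 8)))
  rcases pp_ok.transfer h.I f_w_ev _ (b _ (mem_zpowers _)) with e | e
  · exact absurd (conj_eq_one_iff.1 (conj_eq_one_iff.1 e)) (h.rn (by decide +kernel))
  obtain ⟨j, c, e⟩ := orL_iff.1 e
  change _ * _ = _ * _ at e
  rw [evu rfl c] at e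
  exact ⟨_, h.ex_mul (h.ex_mul hg a) (h.mem j), by rw [← cj_cj, ← cj_cj]; exact mul_inv_eq_iff_eq_mul.2 e⟩

theorem exists_cs : ∃ g : G, Ex p q g ∧ ∃ c ∈ cs, Acts θ g c.B := by
  obtain ⟨g, hg, e8⟩ := h.exists_w
  obtain ⟨k, a, e⟩ := orL_iff.1 (h.srch (h.ex_cj hg (h.ml 2)) (List.forall_mem_singleton.2 (by
    change _ * θ 8 * _ = θ 8 * θ 8
    rw [← e8, conj_inv, conj_mul, conj_mul, conj_mul, show θ 2 * θ 8 * (θ 2)⁻¹ = θ 8 * θ 8 from h.rq (by decide +kernel)]))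
      f_f_ev)
  obtain ⟨f, b, e⟩ := orL_iff.1 e
  change _ * _ = _ * _ at e
  rw [evu rfl a, evu rfl b] at e
  have hg := h.ex_mul hg (h.mem k)
  have e2 : k.ev θ * g * θ 2 * (k.ev θ * g)⁻¹ = f.ev θ := (cj_cj _ _ _).symm.trans (mul_inv_eq_iff_eq_mul.2 e)
  have e8 : k.ev θ * g * θ 8 * (k.ev θ * g)⁻¹ = θ 8 := by
    rw [← cj_cj, e8, cj_of_comm (h.com (k := 3) (by decide +kernel) (h.ovr (List.all_eq_true.1 (by decide +kernel) k a)))]
  generalize k.ev θ * g = g at hg e2 e8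
  obtain ⟨y, c, e9⟩ := orEq_iff.1 ((h.srch (h.ex_cj hg (h.ml 9)) (List.forall_mem_singleton.2
    (cj_of_comm (a := θ 8) (e8 ▸ cj_comm (h.rq (by decide +kernel))))) f_y_ev (cj_pw (h.rq (by decide +kernel)))).resolve_left
      fun e => h.rn (x := θ 9 ^ 2) (y := 1) (by decide +kernel) (conj_eq_one_iff.1 (conj_pow.symm.trans e)))
  rw [evu rfl c, upd_self] at e9
  obtain ⟨c, d, j⟩ := List.any_eq_true.1 (List.all_eq_true.1 (List.all_eq_true.1 (by decide +kernel :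
    lf.all (fun f => [cs0.y, cs1.y].all fun y => cs.any fun c => band (c.f.beq f) (c.y.beq y)) = true) f b) y c)
  rw [band_eq_true] at j
  rw [← W.eq_of_beq j.1] at e2
  rw [← W.eq_of_beq j.2] at e9
  have o := cs_ok c d
  simp only [Cs.ok, band_eq_true] at o
  obtain ⟨-, -, ⟨⟨-, o1⟩, -⟩, -, o2, o3⟩ := o
  have key : ∀ {γ : ℕ → G} {g : G} {f y m : W}, γ 0 = 1 → g * γ 8 * g⁻¹ = γ 8 → g * γ 2 * g⁻¹ = f.ev γ → g * γ 9 * g⁻¹ = y.ev γ →
      g * γ 10 * g⁻¹ = m.ev γ → Acts γ g [(.l 0, .l 0), (.l 8, .l 8), (.l 2, f), (.l 9, y), (.l 10, m)] := fun h0 a b c d => by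
    simp only [Acts, List.forall_mem_cons, List.not_mem_nil, false_imp_iff, implies_true, and_true]
    exact ⟨cj_of_comm (by rw [ev_l, h0, mul_one, one_mul]), a, b, c, d⟩
  have A : Acts (upd θ 100 (g * θ 10 * g⁻¹)) g _ := key (m := .l 100) h.zero e8 (e2.trans (evu o1 (by simp)).symm)
    (e9.trans (evu o1 (by simp)).symm) rfl
  have m : g * θ 10 * g⁻¹ * c.f.ev θ = c.f.ev θ * (g * θ 10 * g⁻¹) := e2 ▸ cj_comm (h.rq (by decide +kernel))
  rcases impL_iff.1 (h.srch (h.ex_cj hg (h.ml 10)) (List.forall_mem_cons.2 ⟨cj_of_comm m, List.forall_mem_singleton.2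
    (by exact cj_of_comm (comm_mul m.symm m.symm).symm)⟩) o3) (fun r hr => by
      have f := band_eq_true.1 (List.all_eq_true.1 (by decide +kernel : rB.all (fun r => band
        ([r.1.subst [.l 0, .l 8, .l 2, .l 9, .l 10], r.2.subst [.l 0, .l 8, .l 2, .l 9, .l 10]].all (avoid 100))
        (pp.eval (.eq (r.1.subst [.l 0, .l 8, .l 2, .l 9, .l 10]) (r.2.subst [.l 0, .l 8, .l 2, .l 9, .l 10])))) = true) r hr)
      exact (A.ev h.zero r.1).symm.trans ((congrArg (g * · * g⁻¹) ((evu f.1 (by simp)).trans ((h.eq f.2).trans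
        (evu f.1 (by simp)).symm))).trans (A.ev h.zero r.2))) with e | e
  · exact ⟨g, hg, c, d, key h.zero e8 e2 e9 (e.trans (evu o1 (by simp)))⟩
  have o2 := comF_iff.1 (pp_ok.transfer h.I o2)
  change _ * θ 9 = θ 9 * _ at e
  refine ⟨_, h.ex_mul hg (inv_mem (h.ml 9)), c, d, key h.zero ?_ ?_ ?_ ?_⟩ <;> rw [← cj_cj]
  · rw [e8]; exact h.rq (by decide +kernel)
  · rw [e2]; exact cj_of_comm (comm_inv (o2 _ (by simp)))
  · rw [e9]; exact cj_of_comm (comm_inv (o2 _ (by simp)))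
  · rw [inv_inv, mul_assoc, inv_mul_eq_iff_eq_mul]; exact e.trans (congrArg _ (evu o1 (by simp)))

theorem tq : ∀ t ∈ 𝐊 θ 1, t • s • q = s • q := h.nrm h.sT (by decide +kernel) fun _ ht => h.fq (h.le 1 ht)

theorem sa : Acts θ (θ 5) (pos 1 aA) := h.word (w := .l 5) (by decide +kernel)
theorem su : Acts θ (θ 6) (pos 11 aUX) := h.word (w := .l 6) (by decide +kernel)
theorem ss (x : Ω) : s • s • x = x := by rw [smul_smul, h.s2, one_smul]
theorem aa (x : Ω) : θ 5 • θ 5 • x = x := by rw [smul_smul, show θ 5 * θ 5 = 1 from h.rq (by decide +kernel), one_smul]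
theorem uu (x : Ω) : θ 6 • θ 6 • x = x := by rw [smul_smul, show θ 6 * θ 6 = 1 from h.rq (by decide +kernel), one_smul]
theorem sas : s • θ 5 • s • q = θ 5 • s • q := by
  rw [← mul_smul, ← mul_smul, mul_assoc, h.s3, mul_smul, mul_smul, h.fq (h.ml 5)]

theorem core {c : Cs} (hc : c ∈ cs) (hg : Ex p q g) (A : Acts θ g c.B) {τ : G} (hτ : τ = θ 5 * (s * (g * (s * θ 5)))) :
    g • θ 5 • s • q = s • q ∧ Acts θ g (pos 1 c.G) ∧ Acts θ τ (pos 11 c.XT) ∧ Acts θ (θ 6 * τ) (pos 11 c.H) ∧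
      ∃ k ∈ c.K, θ 6 * τ * (θ 6 * τ * (θ 6 * τ)) = k.ev θ := by
  have o := cs_ok c hc
  simp only [Cs.ok, band_eq_true] at o
  obtain ⟨⟨⟨⟨o1, o2⟩, o3, o4⟩, ⟨o5, o6⟩, o7, o8⟩, ⟨⟨o9, o10, o11⟩, o12, o13, o14⟩, ⟨⟨o15, o16⟩, o17⟩, ⟨o18, o19⟩, -⟩ := o
  have G1 := h.act A _ o1
  have ap := h.fp (h.ml 5)
  have aq := h.fq (h.ml 5)
  have up := h.fp (h.ml 6)
  have uq := h.fq (h.ml 6)
  have ta := h.nrm h.sa (k := 1) (by decide +kernel) h.tq
  have n1 : ∀ {b}, b ∈ 𝐊 θ 0 → g • b • s • q ≠ p := fun hb e => h.nq hb (MulAction.injective g (e.trans hg.2.symm))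
  have n2 : ∀ {b}, b ∈ 𝐊 θ 0 → g • b • s • q ≠ q := fun hb e => h.np hb (MulAction.injective g (e.trans hg.1.symm))
  have g1 : g • s • q = θ 5 • s • q := by
    rcases h.fT (h.nrm G1 o2 h.tq) with e | e | e | e
    · exact absurd (by simpa using e) (n1 (one_mem _))
    · exact absurd (by simpa using e) (n2 (one_mem _))
    · have S := h.mul G1 h.sT o3
      exact (h.srch ((h.st _).2 (by simp only [mul_smul, h.sp, hg.1, hg.2, e, h.ss, and_self])) (h.mul S (h.mul S S o4) o5) o6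
        trivial).elim
    · exact e
  have g2 : g • θ 5 • s • q = s • q := by
    rcases h.fT (h.nrm G1 o2 ta) with e | e | e | e
    · exact absurd e (n1 (h.ml 5))
    · exact absurd e (n2 (h.ml 5))
    · exact e
    · exact absurd ((h.c1 (h.ml 5)).1 (MulAction.injective g (e.trans g1.symm))) (h.rn (by decide +kernel))
  have T : Acts θ τ _ := hτ ▸ h.act (h.mul h.sa (h.mul h.sT (h.mul G1 (h.mul h.sT h.sa (by decide +kernel)) o7) o8) o9) _ o10
  have H := h.mul h.su T o12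
  have H3 := h.mul H (h.mul H H o13) o14
  refine ⟨g2, G1, T, H, ?_⟩
  have t1 : τ • p = θ 5 • s • q := by simp only [hτ, mul_smul, ap, h.sp, hg.1]
  have t2 : τ • q = s • q := by simp only [hτ, mul_smul, aq, g1, h.sas, h.aa]
  have t3 : τ • s • q = q := by simp only [hτ, mul_smul, h.sas, g2, h.ss, aq]
  have t4 : τ • θ 5 • s • q = p := by simp only [hτ, mul_smul, h.aa, h.ss, hg.2, h.sp, ap]
  have XT : 𝐊 θ 2 ≤ 𝐊 θ 1 := genW_le.2 fun t ht => pp_ok.transfer h.I (φ := .mem 1 t) (by revert t; decide +kernel)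
  have key : ∀ b : W, (∀ t ∈ 𝐊 θ 2, t • b.ev θ • s • q = b.ev θ • s • q) →
      pp.eval (.and (.not (.eq (.mul (.mul b (.l 14)) (.inv b)) (.l 14)))
        (.not (.eq (.mul (.mul b (.l 14)) (.inv b)) (.mul (.mul (.l 5) (.l 14)) (.inv (.l 5)))))) = true →
      τ • b.ev θ • s • q = θ 6 • s • q ∨ τ • b.ev θ • s • q = θ 6 • θ 5 • s • q := fun b a f => by
    have f := pp_ok.transfer h.I f
    refine (h.fX (h.nrm T o11 a)).resolve_left ?_
    rintro (e | e | e | e)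
    · exact f.2 ((h.cc (h.mem b) (h.ml 5)).1 (MulAction.injective τ (e.trans t4.symm)))
    · exact f.1 ((h.c1 (h.mem b)).1 (MulAction.injective τ (e.trans t3.symm)))
    · exact h.nq (h.mem b) (MulAction.injective τ (e.trans t2.symm))
    · exact h.np (h.mem b) (MulAction.injective τ (e.trans t1.symm))
  have d1 : τ • θ 6 • s • q = _ ∨ τ • θ 6 • s • q = _ :=
    key (.l 6) (h.nrm h.su (by decide +kernel) fun t ht => h.tq t (XT ht)) (by decide +kernel)
  have d2 := key (wd [6, 5]) (fun t ht => by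
    have := h.nrm h.su (k := 2) (by decide +kernel) (fun t ht => ta t (XT ht)) t ht
    rwa [← mul_smul (θ 6)] at this) (by decide +kernel)
  change τ • (θ 6 * θ 5) • _ = _ ∨ τ • (θ 6 * θ 5) • _ = _ at d2
  rw [mul_smul] at d2
  have d3 : τ • θ 6 • s • q ≠ τ • θ 6 • θ 5 • s • q := fun e => h.rn (by decide +kernel)
    ((h.c1 (h.ml 5)).1 (MulAction.injective (θ 6) (MulAction.injective τ e.symm)))
  rcases d1 with d1 | d1
  · have d2 := d2.resolve_left fun e => d3 (d1.trans e.symm)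
    have m := (h.st (θ 6 * τ * (θ 6 * τ * (θ 6 * τ)))).2 (by
      simp only [mul_smul, t1, t2, t3, t4, d1, d2, h.uu, up, uq, and_self])
    exact h.one m (H3.cons ((h.c1 m).1 (by simp only [mul_smul, t2, t3, d1, h.uu, uq]))) o17
      (List.all_eq_true.2 fun w hw => List.all_eq_true.1 o16 w (by simp [hw]))
  · have d2 := d2.resolve_right fun e => d3 (d1.trans e.symm)
    have m := (h.st (θ 6 * τ * (θ 6 * τ * (θ 6 * τ)) * g⁻¹)).2 (by
      simp only [mul_smul, inv_smul_eq_iff.2 hg.1.symm, inv_smul_eq_iff.2 hg.2.symm, t1, t2, t3, t4, d1, d2, h.uu, up, uq, and_self])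
    exact (h.srch m (((h.act G1 _ o15).div H3 o18).cons ((h.c1 m).1 (by
      simp only [mul_smul, inv_smul_eq_iff.2 g2.symm, t1, t4, d2, h.uu, up]))) o19 trivial).elim

theorem good (hg : Ex p q g) (A : Acts θ g cs3.B) {τ : G} (hτ : τ = θ 5 * (s * (g * (s * θ 5)))) :
    g * g = θ 7 ∧ (g * (θ 5 * s)) ^ 3 = wN.ev θ ∧ ((θ 6 * τ) ^ 3 = wH.ev θ ∨ (θ 6 * (τ * wZ.ev θ)) ^ 3 = wH.ev θ) := by
  obtain ⟨g2, G1, T, H, k, hk, e⟩ := h.core (by simp [cs]) hg A hτ
  have f := band_eq_true.1 (List.all_eq_true.1 (by decide +kernel : cs3.K.all (fun k => band (fixW ((pos 11 cs3.H).map Prod.fst) k)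
    (pp.eval (.imp (.eq k (k.subst ((pos 11 cs3.H).map Prod.snd))) (.and (.not (.one (.mul (k.subst ((pos 11 cs3.XT).map Prod.snd)) k)))
      (.or (.eq k wH) (.eq (.mul (.mul (wZ.subst ((pos 11 cs3.H).map Prod.snd)) ((wZ.subst ((pos 11 cs3.H).map Prod.snd)).subst
        ((pos 11 cs3.H).map Prod.snd))) (.mul k wZ)) wH)))))) = true) k hk)
  obtain ⟨f1, f2⟩ := pp_ok.transfer h.I f.2 ((cj_of_comm (by rw [← e]; group)).symm.trans (H.fix h.zero f.1))
  have F := h.act A dF (L' := pos 1 aGl) (by decide +kernel)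
  have R := h.mul G1 (h.mul h.sa h.sT (L'' := pos 1 aAS) (by decide +kernel)) (L'' := pos 1 aR) (by decide +kernel)
  refine ⟨?_, ?_, f2.imp (fun f2 => (pow_three _).trans (e.trans f2)) fun f2 => Eq.trans ?_ f2⟩
  · obtain ⟨w, a, b⟩ := h.one ((h.st _).2 (by simp only [mul_smul, hg.1, hg.2, and_self])) (h.mul F F (by decide +kernel)) f_Z_ev rfl
    rcases List.mem_pair.1 a with rfl | rfl
    · have u2 : θ 6 * θ 6 = 1 := h.rq (by decide +kernel)
      have t2 : τ * τ = 1 := by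
        have := cj_sq (k := θ 5 * s) (b.trans h.zero)
        rwa [mul_inv_rev, inv_eq_of_mul_eq_one_left h.s2, inv_eq_of_mul_eq_one_left (show θ 5 * θ 5 = 1 from h.rq (by decide +kernel)),
          mul_assoc _ g, mul_assoc _ s, ← hτ] at this
      refine (f1 ?_).elim
      change _ * _ = _
      rw [← T.fix h.zero f.1, ← e]
      calc _ = τ * (θ 6 * (τ * (θ 6 * (τ * (θ 6 * θ 6) * τ) * θ 6) * τ) * θ 6) * τ := by group
        _ = 1 := by rw [u2, mul_one, t2, mul_one, u2, mul_one, t2, mul_one, u2, mul_one, t2]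
    · exact b
  · obtain ⟨w, a, b⟩ := h.one ((h.st _).2 (by
      simp only [mul_smul, hg.1, hg.2, h.sp, h.ss, h.fp (h.ml 5), h.fq (h.ml 5), g2, and_self]))
        (h.mul R (h.mul R R (L'' := pos 1 aR2) (by decide +kernel)) (by decide +kernel)) f_N_ev rfl
    have f := band_eq_true.1 (List.all_eq_true.1 (by decide +kernel : kN.all (fun k => band (fixW ((pos 1 aR).map Prod.fst) k)
      (pp.eval (.imp (.eq k (k.subst ((pos 1 aR).map Prod.snd))) (.eq k wN)))) = true) w a)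
    exact (pow_three _).trans (b.trans (pp_ok.transfer h.I f.2 ((cj_of_comm (by rw [← b]; group)).symm.trans (R.fix h.zero f.1))))
  · rw [ev_mul, ev_mul, ev_mul, ← H.fix h.zero (k := W.subst _ _) (by decide +kernel), ← H.fix h.zero (by decide +kernel), ← e,
      pow_three]
    group

theorem fin : ∃ g τ : G, τ = θ 5 * (s * (g * (s * θ 5))) ∧ g * g = θ 7 ∧ (g * (θ 5 * s)) ^ 3 = wN.ev θ ∧
    (θ 6 * τ) ^ 3 = wH.ev θ ∧ Acts θ g aG := by
  obtain ⟨g, hg, c, hc, A⟩ := h.exists_cs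
  obtain ⟨-, -, -, -, k, hk, -⟩ := h.core hc hg A rfl
  obtain rfl : c = cs3 := by
    simp only [cs, List.mem_cons, List.not_mem_nil, or_false] at hc
    rcases hc with rfl | rfl | rfl | rfl | rfl | rfl | rfl | rfl <;> first | rfl | exact nomatch hk
  obtain ⟨a, b, e | e⟩ := h.good hg A rfl
  · exact ⟨g, _, rfl, a, b, e, h.act A dB (by decide +kernel)⟩
  have B : Acts θ (θ 7 * g) cs3.B := fun r hr => by rw [← cj_cj, A r hr, cj_of_comm (h.zP (h.mem _)).symm]
  obtain ⟨a', b', -⟩ := h.good (h.ex_mul hg (h.ml 7)) B rfl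
  refine ⟨_, _, rfl, a', b', ?_, h.act B dB (by decide +kernel)⟩
  have a2 : θ 5 * θ 5 = 1 := h.rq (by decide +kernel)
  rw [← e, ← show θ 5 * θ 14 * (θ 5)⁻¹ = _ from h.eq (u := .mul (.mul (.l 5) (.l 14)) (.inv (.l 5))) (by decide +kernel), ← h.sz,
    ← a, inv_eq_of_mul_eq_one_left h.s2, inv_eq_of_mul_eq_one_left a2]
  congr 2
  calc _ = θ 5 * s * g * (s * 1 * s) * (g * g * s * θ 5) := by rw [mul_one, h.s2]; group
    _ = _ := by rw [← a2]; group

end Rp

theorem newLet_m2 : newLet (newLet gR m2) wE = gR := funext fun c => by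
  by_cases hc : c < 21
  · rw [newLet, ← W.ev_subst]
    exact eqR (t := .l c) (by revert c; decide +kernel)
  · rw [newLet, labW_of_lt (N := 20) (by decide) (by omega), Lab.eq_one (n := 21) labR (by decide) (not_lt.1 hc)]
    exact labR.zero

theorem isoRu_of_ext [Finite G] (I : IsoW (newLet gR mF) δ) {τ : G} (hτ : τ = δ 1 * (δ 6 * (g * (δ 6 * δ 1))))
    (h1 : g * g = newLet δ lP 7) (h2 : (g * (δ 1 * δ 6)) ^ 3 = wN.ev (newLet δ lP)) (h3 : (δ 8 * τ) ^ 3 = wH.ev (newLet δ lP))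
    (h4 : Acts (newLet δ lP) g aG) (hc : Nat.card G = 145926144000) : Spor.IsoRu G := by
  have L := I.quo.lab labF
  obtain ⟨ε, hε⟩ : ∃ ε : ℕ → G, ε = fun c => (1 :: [δ 1, g, g⁻¹, τ, τ⁻¹, δ 6, 1, δ 8, δ 9, δ 10, δ 11, δ 12]).getD c 1 := ⟨_, rfl⟩
  have L2 : Lab ε iv2 := hε ▸ Lab.of_list (show iv2 < 2 ^ 65 by decide) fun c hc => by
    change c < 13 at hc
    interval_cases c
    exacts [mul_one _, L.inv 1, inv_mul_cancel _, mul_inv_cancel _, inv_mul_cancel _, mul_inv_cancel _, L.inv 6, mul_one _, L.inv 8,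
      L.inv 9, L.inv 10, L.inv 11, L.inv 12]
  have e1 : newLet ε mF = δ := funext fun c => by
    have z : labW mF c = .l 0 → newLet ε mF c = δ c := fun e =>
      ((congrArg (W.ev ε) e).trans L2.zero).trans ((I (.l c)).1 ((congrArg (W.ev gR) e).trans labR.zero)).symm
    by_cases hc : c < 21
    · interval_cases c <;> first | exact z rfl | (rw [hε]; rfl)
    · exact z (labW_of_lt (N := 20) (by decide) (by omega))
  have ev : ∀ t : W, (t.subst lP).ev ε = t.ev (newLet δ lP) := fun t => by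
    rw [W.ev_subst, ← e1, newLet_newLet (by decide +kernel)]
  have q : QuoW (newLet gR mF) (newLet ε mF) := e1 ▸ I.quo
  have R : ∀ t ∈ RF ++ RG, t.ev ε = 1 := List.forall_mem_append.2 ⟨rels_of_quo q (by decide +kernel)
    (by rw [gR]; exact valR'.rels lawR (by decide +kernel)), List.forall_mem_append.2 ⟨by
      simp only [List.forall_mem_cons, List.not_mem_nil, false_imp_iff, implies_true, and_true, ev_mul, ev_inv, ev_pow, ev,
        mul_inv_eq_one]
      exact ⟨hε ▸ h1, hε ▸ h2, hε ▸ h3, by rw [hε]; exact inv_mul_eq_one.2 hτ⟩, List.forall_mem_map.2 fun r hr => by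
        rw [ev_mul, ev_mul, ev_mul, ev_inv, ev, ev, hε]; exact mul_inv_eq_one.2 (h4 r hr)⟩⟩
  have L3 : Lab (newLet gR m2) iv2 := Lab.newLet labR.zero (by decide) (by rw [gR]; exact valR'.rels lawR (by decide +kernel))
  have r := rels_of_loops (γ := ε) (δ := newLet gR m2) (labs := mF) (by rwa [newLet_newLet (by decide +kernel)]) (by decide +kernel)
    (tX_mems (L2.prod L3) (rels_pair R (rels_newLet (by rw [gR]; exact valR'.rels lawR (by decide +kernel)))))
    (List.forall_mem_append.2 ⟨List.forall_mem_cons.2 ⟨(congrFun newLet_m2 0).trans labR.zero, List.forall_mem_map.2 fun c _ =>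
      (congrArg₂ (· * ·) (congrFun newLet_m2 _) (congrFun newLet_m2 c)).trans (labR.inv c)⟩,
      rels_map_subst (newLet_m2.symm ▸ relR)⟩)
  have l := Lab.newLet L2.zero (by decide) (List.forall_mem_append.1 r).1
  have r := rels_newLet (List.forall_mem_append.1 r).2
  have rD := rels_of_isIn (l := RD) r (by decide +kernel)
  have q2 := quo_of_card l rD (m := mG) (cardG (l.prod labR) (rels_pair r relR)) (by rw [topR, card_top, Ru.card_Ru])
    (by decide +kernel)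
  rw [newLet_mG labR, newLet_mG l] at q2
  have := Ru.simple_Ru
  have : IsSimpleGroup (genW gR gs) := topR ▸ topEquiv.isSimpleGroup
  have J := q2.iso_of_simple (mem_gs labR relD) (c := 13) fun e => rne (s := labW lP 7) (t := .l 0) (by decide +kernel)
    ((ev_fix (by decide +kernel)).symm.trans (((I (labW lP 7)).2 (h1.symm.trans (by rw [hε] at e; exact e))).trans labR.zero.symm))
  exact J.symm.nonempty_equiv (eq_top_of_card_eq _ (by rw [← J.card_eq, topR, card_top, Ru.card_Ru, hc])) topR |>.map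
    (·.trans topEquiv)

/-- Recognition of the Rudvalis group from a rank three action. -/
theorem isoRu_of_rank3 [Finite G] [Finite Ω] [IsPretransitive G Ω] (hΩ : Nat.card Ω = 4060) {r : Ω} (e : stabilizer G p ≃* Tits.Γ)
    (hq : (orbit (stabilizer G p) q).ncard = 1755) (hr : (orbit (stabilizer G p) r).ncard = 2304) : Spor.IsoRu G := by
  have cF : Nat.card (stabilizer G p) = 35942400 := (Nat.card_congr e.toEquiv).trans Tits.card_Γ
  have cs : ∀ x : Ω, (orbit (stabilizer G p) x).ncard * Nat.card (stabilizer G p ⊓ stabilizer G x : Subgroup G) = 35942400 :=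
    fun x => by
      rw [← cF, ← (stabilizer (stabilizer G p) x).index_mul_card, index_stabilizer, inf_comm,
        ← Nat.card_congr (subgroupOfEquivOfLe (inf_le_right : stabilizer G x ⊓ stabilizer G p ≤ _)).toEquiv, inf_subgroupOf_right]
      rfl
  have c1 := cs q
  rw [hq] at c1
  obtain ⟨δ, I, a, b, c⟩ := exists_let e (M := stabilizer G p ⊓ stabilizer G q) inf_le_left (by omega)
  have L := I.quo.lab labF
  have n : ∀ x : Ω, (orbit (stabilizer G p) x).ncard ≠ 1 → p ∉ orbit (stabilizer G p) x := fun x f m => f (by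
    rw [← orbit_eq_iff.2 m, Set.ncard_eq_one]
    exact ⟨p, Set.eq_singleton_iff_unique_mem.2 ⟨mem_orbit_self _, fun _ ⟨k, j⟩ => j.symm.trans k.2⟩⟩)
  have u : insert p (orbit (stabilizer G p) q ∪ orbit (stabilizer G p) r) = Set.univ := Set.eq_of_subset_of_ncard_le
    (Set.subset_univ _) (by
      rw [Set.ncard_insert_of_notMem (fun i => i.elim (n q (by omega)) (n r (by omega))), Set.ncard_union_eq (Set.disjoint_left.2
        fun x i j => by rw [← orbit_eq_iff.2 i, orbit_eq_iff.2 j] at hq; omega), Set.ncard_univ]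
      omega)
  have ev : ∀ {s t : W}, band (band (fixW mF s) (fixW mF t)) (eR.weq gc gi s t) = true → s.ev δ = t.ev δ := fun {s t} f => by
    rw [band_eq_true, band_eq_true] at f
    exact I.quo.ev_eq ((ev_fix f.1.1).trans ((eqR f.2).trans (ev_fix f.1.2).symm))
  have m : ∀ t : W, t.ev δ • p = p := fun t => a.le (I.quo.ev_mem (ev_mem_of_forall (fun c => by
    rw [genW_fix (by decide +kernel)]; exact mem_mF labR c) t))
  have : Fact (Nat.Prime 3) := ⟨Nat.prime_three⟩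
  have h : Rp (newLet δ lP) (δ 6) p q := {
    I := isoP.trans (by have := I.newLet lP; rwa [newLet_newLet (by decide +kernel)] at this)
    st := fun g => by rw [genW_lP, b]; rfl
    sp := m (.l 6)
    s2 := L.inv 6
    s3 := ev (s := wd [6, 1, 6]) (t := wd [1, 6, 1]) (by decide +kernel)
    sz := ev (s := .mul (.mul (.l 6) (labW lP 7)) (.inv (.l 6))) (t := labW lP 14) (by decide +kernel)
    sT := fun r hr => by
      rw [← W.ev_subst, ← W.ev_subst]
      exact ev (s := .mul (.mul (.l 6) _) (.inv (.l 6))) (by revert r; decide +kernel)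
    cen := fun x i j => (c x i j).2
    fix := fun x i => by
      rcases u.ge (Set.mem_univ x) with j | ⟨f, j⟩ | j
      · exact .inl j
      · exact .inr ⟨f, f.2, j⟩
      · have := cs x
        rw [orbit_eq_iff.2 j, hr] at this
        omega
    ne := fun i => n q (by omega) (i ▸ mem_orbit_self _)
    tr := exists_smul_eq G p q
    h3 := fun w hw => by
      obtain ⟨k, -, f⟩ := List.any_eq_true.1 (List.all_eq_true.1 (by decide +kernel : e2.all (fun w => h3.any fun k =>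
        band (band (band (band (fixW mF (.mul k (w.subst lP))) (fixW mF (.mul (w.subst lP) k)))
          (eR.weq gc gi (.mul k (w.subst lP)) (.mul (w.subst lP) k)))
          (band (band (fixW mF (.pow k 3)) (fixW mF (.l 0))) (eR.weq gc gi (.pow k 3) (.l 0)))) (band (fixW mF k) (bnot
            (Nat.beq (eR.mul (eR.ev gc gi k false) eR.one) (eR.mul (eR.ev gc gi (.l 0) false) eR.one))))) = true) w hw)
      rw [band_eq_true, band_eq_true, @band_eq_true (fixW _ _), bnot_iff, Bool.not_eq_true] at f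
      exact ⟨_, m k, W.ev_subst δ lP w ▸ ev f.1.1, orderOf_eq_prime ((ev f.1.2).trans L.zero) fun i => rne f.2.2
        ((ev_fix f.2.1).symm.trans (((I k).2 i).trans labR.zero.symm))⟩ }
  obtain ⟨g, τ, a, b, c, d, f⟩ := h.fin
  exact isoRu_of_ext I a b c d f (by
    rw [← (stabilizer G p).index_mul_card, index_stabilizer_of_transitive, hΩ, cF])

end Cfsg.Lib.Big.RU
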