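import Mathlib

/-!
# The image of a faithful permutation representation
-/

set_option autoImplicit false

namespace Cfsg.Lib.Calc

variable {G X : Type*} [Group G] {ρ : G →* Equiv.Perm X}

/-- The point stabilizer in the image of a faithful permutation representation. -/
noncomputable def stabRange (h : Function.Injective ρ) (x : X) :
    (letI := MulAction.compHom X ρ; MulAction.stabilizer G x) ≃* MulAction.stabilizer ρ.range x :=
  letI := MulAction.compHom X ρ
  ((MonoidHom.ofInjective h).subgroupMap _).trans (MulEquiv.subgroupCongr (Subgroup.ext fun y => by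
    obtain ⟨g, rfl⟩ := (MonoidHom.ofInjective h).surjective y
    exact Subgroup.mem_map_iff_mem (MonoidHom.ofInjective h).injective))

theorem isPretransitive_range [Finite X] {x : X}
    (h : (letI := MulAction.compHom X ρ; MulAction.stabilizer G x).index = Nat.card X) :
    MulAction.IsPretransitive ρ.range X := by
  let _ := MulAction.compHom X ρ
  rw [MulAction.index_stabilizer, ← Set.ncard_univ] at h
  have t := (Set.eq_of_subset_of_ncard_le (Set.subset_univ _) h.ge).ge
  refine ⟨fun y z => ?_⟩
  obtain ⟨g, rfl⟩ := t (Set.mem_univ y)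
  obtain ⟨k, rfl⟩ := t (Set.mem_univ z)
  exact ⟨⟨_, k * g⁻¹, rfl⟩, show (k * g⁻¹) • g • x = _ by rw [mul_smul, inv_smul_smul]⟩

end Cfsg.Lib.Calc
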