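import Cfsg.Agent.Lib.Calc.Suz
import Cfsg.Agent.Lib.Calc.TMLet
import Cfsg.Agent.Lib.Mod.G24

set_option autoImplicit false
set_option maxRecDepth 1000000
set_option maxHeartbeats 0

namespace Cfsg.Lib.Calc.Suz

open Cfsg.Lib.Grp Cfsg.Lib.F2 Subgroup

/-- Words for the dictionary of `G₂(4)`; letter `c` has the number `24 + c`. -/
def gws : List (List ℕ × ℕ) := [([0], 7), ([1], 14), ([2, 3, 0], 1), ([3, 2, 3], 1), ([2, 1, 2], 1), ([2, 2, 1], 1), ([0, 0, 1], 1), ([1, 2, 1], 1), ([3, 2, 1, 1, 0, 0, 1, 1], 1), ([3, 2, 2, 1, 0, 1, 0, 0, 0], 1), ([2, 3, 2, 3, 0, 3, 2, 1], 1), ([1, 1, 0, 0, 3, 2, 1, 1], 1), ([1, 0, 1, 2], 1), ([3, 0, 3, 0, 1, 2, 3, 3, 2], 1), ([0, 0, 3, 3, 3, 0, 0, 3, 2], 1), ([2, 2, 1, 0, 1, 1, 2, 2, 2, 1, 2, 3, 3, 0], 1), ([2, 1, 2, 1, 1, 1, 1, 2, 2, 1, 2, 1, 0], 1), ([2, 1, 1, 2, 3, 2, 3, 3, 0, 3, 0, 1, 1, 1], 1), ([3, 2, 3,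 3, 2, 3, 2, 1, 2, 3, 2], 1), ([2, 2, 2, 3, 2, 3, 0, 0, 1, 1, 0, 1, 2], 1), ([1, 0, 1, 0, 1, 0, 1, 1, 2, 3, 2, 2, 1, 1, 0, 0, 0], 1), ([0, 0, 0, 3, 2, 2, 1, 2, 2, 3, 0, 1, 1, 2, 2, 3], 1), ([], 1), ([0, 3, 3, 3, 0, 0, 0, 0, 1, 1, 1, 2], 1), ([3, 2, 3, 0, 0, 0, 3, 0, 0, 0, 0, 1, 2, 2, 2, 1, 0, 1], 1), ([2, 1, 1, 2, 3, 0, 0, 0, 0, 3, 3, 2, 1, 2, 3, 3, 2], 1), ([2, 2, 2, 1, 1, 1, 1, 2, 1, 0, 1, 2, 3, 2, 1, 2, 3, 0], 1), ([2, 1, 2, 2, 3, 0, 0, 3, 2, 2, 1, 2, 1, 2, 1, 2, 2, 1], 1), ([0, 3, 2, 2, 1, 0, 1, 0, 0, 3, 3, 2, 3, 0, 3, 2, 2], 1)]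
theorem g_ok : litK 416 9 (get 9) Mod.G24.B.D0 gws (fun D => band
    (weqs (get 9) D Mod.G24.B.bs (([24], []) :: (List.range 7).map (fun c => ([24 + c, 24 + c], [])) ++
      e2_rels.map fun t => ((t.toList (get 5 iv)).map (24 + ·), [])))
    (band (allA e2_rels fun t => allL (t.toList (get 5 iv)) fun c => blt c 7)
    (lowG 416 (get 9) (get 4) D Mod.G24.B.bs [26, 27, 28, 29, 30] [(0, [26, 30, 27, 28, 26, 27, 28, 27, 28, 27, 26, 30, 29, 27, 28, 26, 27, 28, 29, 27, 28, 26, 27, 28, 27, 26, 28, 27, 29, 28, 30, 26, 27]), (1, [28, 27, 26, 30, 27, 28, 26, 27, 28, 29, 28, 27, 28, 26, 27, 28, 27, 28, 29, 26, 27, 28, 27, 28, 26, 27, 26, 29, 30, 26, 27, 28, 27, 26, 29]), (2, [0, 0, 0, 0, 0, 0, 0]), (3, [1, 1, 1, 1, 1, 1, 1, 1, 1, 1, 1, 1, 1, 1]), (4, [2, 3, 0]), (5, [3, 2, 3]), (6, [2, 1, 2]), (7, [2, 2, 1]), (8, [0, 0, 1]), (9, [1, 2, 1]), (10, [3,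 2, 1, 1, 0, 0, 1, 1]), (11, [3, 2, 2, 1, 0, 1, 0, 0, 0]), (12, [2, 3, 2, 3, 0, 3, 2, 1]), (13, [1, 1, 0, 0, 3, 2, 1, 1]), (14, [1, 0, 1, 2]), (15, [3, 0, 3, 0, 1, 2, 3, 3, 2]), (16, [0, 0, 3, 3, 3, 0, 0, 3, 2]), (17, [2, 2, 1, 0, 1, 1, 2, 2, 2, 1, 2, 3, 3, 0]), (18, [2, 1, 2, 1, 1, 1, 1, 2, 2, 1, 2, 1, 0]), (19, [2, 1, 1, 2, 3, 2, 3, 3, 0, 3, 0, 1, 1, 1]), (20, [3, 2, 3, 3, 2, 3, 2, 1, 2, 3, 2]), (21, [2, 2, 2, 3, 2, 3, 0, 0, 1, 1, 0, 1, 2]), (22, [1, 0, 1, 0, 1, 0, 1, 1, 2, 3, 2, 2, 1, 1, 0, 0, 0]), (23, [0, 0, 0, 3, 2, 2, 1, 2, 2, 3, 0, 1, 1, 2, 2, 3])]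
      [⟨255, 416, 4, Mod.G24.B.t1, [6, 9, 10, 11, 12, 13, 14]⟩, ⟨0, 315, 4, Mod.G24.B.t2, [15, 16, 17, 18, 19, 20, 21]⟩, ⟨1, 160, 4, Mod.G24.B.t3, [22, 23, 24, 25, 26]⟩, ⟨2, 12, 4, Mod.G24.B.t4, [27, 28]⟩] 251596800))) = true := by decide +kernel

theorem card_g2 {G : Type*} [Group G] {γ : ℕ → G} (hL : Lab γ iv) (hr : ∀ t ∈ e2_rels, t.ev γ = 1) :
    Nat.card (genW γ [.l 2, .l 3, .l 4, .l 5, .l 6]) ≠ 0 ∧
      Nat.card (genW γ [.l 2, .l 3, .l 4, .l 5, .l 6]) ≤ 416 * (280 * (216 * (10 * 1))) :=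
  card_le_of_relIndex (K := genW γ [.l 2, .l 3, .l 4, .l 5]) (genW_le_of_subOK hL [] hr (by decide +kernel))
    (e2_index hL hr (mem_genW_of_subOK hL hintA hr (by decide +kernel)))
    (card_le_of_relIndex (K := genW γ [.l 2, .l 3, .l 4]) (genW_le_of_subOK hL [] hr (by decide +kernel))
      (e3_index hL (rels_of_isIn hr (by decide +kernel)) (mem_genW_of_subOK hL hintA hr (by decide +kernel)))
      (card_le_of_relIndex (genW_le_of_subOK hL hintA hr (by decide +kernel))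
        (e4_index hL (rels_of_isIn hr (by decide +kernel)) (mem_genW_of_subOK hL [] hr (by decide +kernel)))
        (card_le_of_relIndex bot_le (e5_index hL (rels_of_isIn hr (by decide +kernel)) (by simp)) card_bot_le)))

/-- The point stabilizer is `G₂(4)`. -/
theorem iso_g2 {F : Type*} [Field F] [Fintype F] (hF : Fintype.card F = 4) :
    Nonempty (genW gam [.l 2, .l 3, .l 4, .l 5, .l 6] ≃* Lie.chevG2.group F) := by
  obtain ⟨_, _, _, κ, C⟩ := Mod.G24.hasCx hF gws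
  obtain ⟨k1, k2⟩ := band_eq_true.1 (of_litK g_ok)
  obtain ⟨k2, k3⟩ := band_eq_true.1 k2
  have k1 := C.weqs k1
  have := C.fin
  let δ : ℕ → Lie.chevG2.group F := fun c => if c < 7 then κ (24 + c) else 1
  have hL : Lab δ iv := InvTab.lab (m := 7) (by decide +kernel) (by simpa [δ] using k1 _ List.mem_cons_self)
    (fun c => by
      by_cases hc : c < 7
      · simpa [δ, hc] using k1 _ (List.mem_cons_of_mem _ (List.mem_append_left _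
          (List.mem_map_of_mem (List.mem_range.2 hc))))
      · simp [δ, hc]) fun c hc => if_neg (by omega)
  have hr : ∀ t ∈ e2_rels, t.ev δ = 1 := fun t ht => by
    rw [← W.prod_toList hL.inv, List.map_congr_left (f := δ) (g := κ ∘ (24 + ·)) fun c hc =>
      if_pos (blt_iff.1 (allL_iff.1 (allA_iff.1 k2 t ht) c hc)), ← List.map_map]
    exact k1 _ (List.mem_cons_of_mem _ (List.mem_append_right _ (List.mem_map_of_mem ht)))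
  obtain ⟨φ, hφ, -⟩ := exists_hom_of_card_le isLab.zero hL.zero (card_g2 (isLab.prod hL)
    (rels_prod (rels_of_isIn rels_hold (by decide +kernel)) hr)) card_stab.ge
  have h1 := (C.lowG k3).trans (card_le_of_le (gsub_le (H := φ.range).2 fun i hi => hφ.ge (by
    simp only [List.mem_cons, List.not_mem_nil, or_false] at hi
    rcases hi with rfl | rfl | rfl | rfl | rfl
    exacts [mem_genW δ (t := .l 2) (by simp), mem_genW δ (t := .l 3) (by simp), mem_genW δ (t := .l 4) (by simp),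
      mem_genW δ (t := .l 5) (by simp), mem_genW δ (t := .l 6) (by simp)])))
  have : Finite (genW gam [.l 2, .l 3, .l 4, .l 5, .l 6]) := Nat.finite_of_card_ne_zero (by rw [card_stab]; decide)
  exact ⟨MulEquiv.ofBijective φ ((MonoidHom.range_eq_top.1 (eq_top_of_le_card _ (C.card.trans_le h1))).bijective_of_nat_card_le
    (card_stab.trans C.card.symm).le)⟩

end Cfsg.Lib.Calc.Suz
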